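import Mathlib
import Cfsg.Agent.Lib.Helper94.OMG.Defs
import Cfsg.Agent.Lib.Helper44.OElp.OddOmega
import Cfsg.Agent.Lib.Helper53.OElm.MinusQE

/-!
# OMG (S2415): packages [UOMM] and [LOM]

* `pkgUOmM`: an isometry of the minus form of odd order lies in `Ω⁻`.
* `pkgLOm`: the Levi image of `SL_k` lies in `Ω⁻` (`k ≥ 3`).
-/

set_option autoImplicit false
open scoped Matrix MatrixGroups

namespace Cfsg.Agent.Lib.Helper26.OMG

open Cfsg.Agent.Lib.Helper94.OMG Cfsg.Agent.Lib.Helper64.OParM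
open Cfsg.Agent.Lib.Helper32.OPG

universe u

/-- [UOMM] -/
theorem pkgUOmM : PkgUOmM.{u} := by
  intro F _ _ k a b hab hk u r hr hur
  classical
  have hQ := (Cfsg.Agent.Lib.Helper53.OElm.pkgMinusQE F k a b hab).1
  have hord : Odd (orderOf u) := Odd.of_dvd_nat hr (orderOf_dvd_of_pow_eq_one hur)
  have hcard : Fintype.card (MI k) = 2 * k + 2 := by
    simp only [MI, Fintype.card_sum, Fintype.card_fin]
    ring
  have hmem := Cfsg.Agent.Lib.Helper44.OElp.pkgOddOmegaE F (MI k) (Cfsg.quadFormMinus k F a b) hQ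
    (fun _ => Or.inr (by rw [hcard]; omega)) (u : GL (MI k) F) u.2
    (by rwa [Subgroup.orderOf_coe])
  obtain ⟨τ, hτ, hτe⟩ := Subgroup.mem_map.mp hmem
  have hτσ : τ = u := Subtype.ext hτe
  rwa [hτσ] at hτ

/-- [LOM] -/
theorem pkgLOm : PkgLOm.{u} := by
  intro F _ _ k a b hk g
  have h1 : Cfsg.Agent.Lib.Helper14.leviIsom k F (Matrix.SpecialLinearGroup.toGL g) ∈
      Cfsg.Omega F (Cfsg.quadFormPlus k F) :=
    Cfsg.Agent.Lib.Helper14.leviIsom_mem_omega_of_det (fun h => by omega) _ (by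
      simp)
  exact Cfsg.Agent.Lib.Helper14.map_mem_commutator' (Em k F a b) h1

end Cfsg.Agent.Lib.Helper26.OMG
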